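import Cfsg.Agent.Lib.BG.Api.Core3
import Cfsg.Agent.Lib.Core.Coprime

/-! A `P × Q` argument modulo `O_{p'}` of a solvable subgroup. -/

set_option autoImplicit false

namespace H92

open Subgroup Cfsg H69 H45
open scoped commutatorElement

variable {G : Type*} [Group G] [Finite G]

/-- If the `p`-group `A` and the `p'`-group `Z` commute, normalize the solvable group `R`, and
`[C_R(A), Z]` is a `p'`-group, then every `p'`-subgroup of `[R, Z]` lies in `O_{p'}(R)`. -/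
theorem le_pcore_compl_of_PxQ {p : ℕ} [hp : Fact p.Prime] {R A Z Q : Subgroup G}
    (hR : Group.IsSolvable R) (hA : IsPGroup p A) (hZ : IsPi {p}ᶜ Z) (hAR : A ≤ 𝐍(R))
    (hZR : Z ≤ 𝐍(R)) (hAZ : A ≤ 𝐂(Z)) (h : IsPi {p}ᶜ ⁅R ⊓ 𝐂(A), Z⁆) (hQ : IsPi {p}ᶜ Q)
    (hQR : Q ≤ ⁅R, Z⁆) : Q ≤ O[{p}ᶜ] R := by
  set K := O[{p}ᶜ] R with hK
  have hRK : R ≤ 𝐍(K) := pcore_norm _ _
  have hAK : A ≤ 𝐍(K) := le_norm_pcore _ hAR
  have hZK : Z ≤ 𝐍(K) := le_norm_pcore _ hZR
  have hRZ : ⁅R, Z⁆ ≤ R := commutator_le_left_of_le_normalizer hZR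
  set P := O[{p}] (R /ₙ K) with hP
  have hPp : IsPGroup p P := pcore_isPGroup p _
  have hZP : Z /ₙ K ≤ 𝐍(P) := le_norm_pcore _ (quotient_norms K hZR)
  have hc : (R ⊓ 𝐂(A)) /ₙ K = R /ₙ K ⊓ 𝐂(A /ₙ K) := quotient_coprime_subcent hAK hAR
    (H2.coprime_of_le_right (H1.coprime_card_of_isPGroup_of_coprime hA (pcore_coprime p R))
      inf_le_right) (Or.inr (solvableS hR inf_le_left))
  have h1 : Z /ₙ K ≤ 𝐂(P) := by
    refine H2.thompson_PxQ (quotient_isPGroup K hA)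
      (((Nat.Prime.coprime_iff_not_dvd hp.out).mpr
        ((isPi_compl_singleton_iff hp.out).mp (quotient_pgroup K hZ))).symm) hPp
      (quotient_cents K hAZ) (le_norm_pcore _ (quotient_norms K hAR)) hZP ?_
    apply le_centralizer_of_commutator_eq_bot
    rw [eq_bot_iff, ← IsPi.inf_eq_bot ((isPi_singleton_iff hp.out).mpr hPp) (quotient_pgroup K h)]
    refine le_inf ((commutator_mono inf_le_left le_rfl).trans
      (commutator_le_left_of_le_normalizer hZP)) ?_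
    rw [quotientR (inf_le_left.trans hRK) hZK, hc]
    exact commutator_mono (inf_le_inf_right _ (pcore_sub _ _)) le_rfl
  have h2 : Q /ₙ K ≤ P := by
    refine (quotientS K hQR).trans ?_
    have hF : Fit (R /ₙ K) = P := Fitting_eq_pcore (trivg_pcore_quotient _ _)
    refine le_trans (le_inf (quotientS K hRZ) ?_) ((hF ▸ cent_sub_Fitting (quotient_sol K hR)))
    rw [quotientR hRK hZK]
    exact H2.commutator_le_centralizer_of_normalizes (pcore_norm _ _) h1
  refine (quotient_sub1 ((hQR.trans hRZ).trans hRK)).mp ?_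
  rw [eq_bot_iff, ← IsPi.inf_eq_bot ((isPi_singleton_iff hp.out).mpr hPp) (quotient_pgroup K hQ)]
  exact le_inf h2 le_rfl

end H92
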